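import Cfsg.Agent.H72.Push.Common
import Mathlib

/-! Every automorphism of a subgroup is induced inside the symmetric group on the group. -/

set_option autoImplicit false
set_option linter.style.haveILetI false

namespace Cfsg.Agent.H72.Push

open Cfsg.Agent Subgroup

variable {G : Type*} [Group G]

/-- Apply an automorphism of `S` inside each right coset. -/
noncomputable def cosetTwist (S : Subgroup G) (α : S ≃* S) (g : G) : G :=
  (α ⟨g * ((g⁻¹ : G) : G ⧸ S).out, by
    have h := (QuotientGroup.eq (s := S)).1 (QuotientGroup.out_eq' ((g⁻¹ : G) : G ⧸ S))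
    have := S.inv_mem h
    simpa using this⟩ : G) * (((g⁻¹ : G) : G ⧸ S).out)⁻¹

theorem cosetTwist_class (S : Subgroup G) (α : S ≃* S) (g : G) :
    (((cosetTwist S α g)⁻¹ : G) : G ⧸ S) = ((g⁻¹ : G) : G ⧸ S) := by
  conv_rhs => rw [← QuotientGroup.out_eq' ((g⁻¹ : G) : G ⧸ S)]
  rw [QuotientGroup.eq, cosetTwist]
  simp

theorem cosetTwist_symm (S : Subgroup G) (α : S ≃* S) (g : G) : cosetTwist S α.symm (cosetTwist S α g) = g := by
  rw [cosetTwist]
  simp only [cosetTwist_class]
  simp [cosetTwist]

theorem cosetTwist_mul (S : Subgroup G) (α : S ≃* S) (s : S) (g : G) :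
    cosetTwist S α ((s : G) * g) = (α s : G) * cosetTwist S α g := by
  have hc : ((((s : G) * g)⁻¹ : G) : G ⧸ S) = ((g⁻¹ : G) : G ⧸ S) := by
    rw [QuotientGroup.eq]; simp
  simp only [cosetTwist, hc]
  rw [← mul_assoc]
  congr 1
  rw [← coe_mul, ← map_mul]
  congr 2
  exact Subtype.ext (mul_assoc _ _ _)

/-- The permutation of `G` inducing `α` on the left translations by `S`. -/
noncomputable def twistPerm (S : Subgroup G) (α : S ≃* S) : Equiv.Perm G where
  toFun := cosetTwist S α
  invFun := cosetTwist S α.symm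
  left_inv := cosetTwist_symm S α
  right_inv g := by
    have := cosetTwist_symm S α.symm g
    rwa [MulEquiv.symm_symm] at this

theorem toPermHom_injective : Function.Injective (MulAction.toPermHom G G) := fun a b hab => by
  have := congrArg (fun π : Equiv.Perm G => π 1) hab
  simpa using this

theorem twist_conj (S : Subgroup G) (α : S ≃* S) (s : S) :
    twistPerm S α * MulAction.toPermHom G G (s : G) * (twistPerm S α)⁻¹ = MulAction.toPermHom G G (α s : G) := by
  rw [mul_inv_eq_iff_eq_mul]
  ext g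
  exact cosetTwist_mul S α s g

theorem twist_mem (S : Subgroup G) (α : S ≃* S) :
    twistPerm S α ∈ normalizer ((S.map (MulAction.toPermHom G G) : Subgroup (Equiv.Perm G)) : Set (Equiv.Perm G)) := by
  refine mem_normalizer_iff.2 fun x => ⟨?_, ?_⟩
  · rintro ⟨s, hs, rfl⟩
    exact ⟨_, (α ⟨s, hs⟩).2, (twist_conj S α ⟨s, hs⟩).symm⟩
  · rintro ⟨s, hs, e⟩
    refine ⟨(α.symm ⟨s, hs⟩ : G), (α.symm ⟨s, hs⟩).2, ?_⟩
    have h1 := twist_conj S α (α.symm ⟨s, hs⟩)
    rw [α.apply_symm_apply] at h1
    exact mul_left_cancel (mul_right_cancel (h1.trans e))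

variable [Finite G]

/-- The symmetric group supplies every automorphism. -/
theorem NoChar.perm {S : Subgroup G} (hnc : NoChar S) :
    ∀ T : Subgroup (Equiv.Perm G), T ≤ S.map (MulAction.toPermHom G G) →
      normalizer ((S.map (MulAction.toPermHom G G) : Subgroup (Equiv.Perm G)) : Set (Equiv.Perm G)) ≤
        normalizer (T : Set (Equiv.Perm G)) →
      (MulAction.toPermHom G G).range ≤ normalizer (T : Set (Equiv.Perm G)) → T = ⊥ := by
  intro T hTS hA hM
  have hT : T.comap (MulAction.toPermHom G G) = ⊥ := by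
    refine hnc _ ?_ (fun α x hx => ?_) ⟨fun x hx g => ?_⟩
    · rw [← comap_map_eq_self_of_injective toPermHom_injective S]; exact comap_mono hTS
    · show MulAction.toPermHom G G (α x : G) ∈ T
      rw [← twist_conj S α x]
      exact (mem_normalizer_iff.1 (hA (twist_mem S α)) _).1 hx
    · show MulAction.toPermHom G G (g * x * g⁻¹) ∈ T
      rw [map_mul, map_mul, map_inv]
      exact (mem_normalizer_iff.1 (hM ⟨g, rfl⟩) _).1 hx
  rw [← map_comap_eq_self (hTS.trans (map_le_range _ _)), hT, Subgroup.map_bot]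

end Cfsg.Agent.H72.Push
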