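import Cfsg.Agent.H72.Push.One
import Cfsg.Agent.H72.Push.Perm
import Cfsg.Agent.H72.Push.TwoMain
import Mathlib

/-! The structure in rank one pushing up. -/

set_option autoImplicit false
set_option linter.style.haveILetI false
set_option linter.unusedSectionVars false

open scoped commutatorElement

namespace Cfsg.Agent.H72.Push

open Cfsg.Agent Subgroup RankOne

variable {G : Type*} [Group G] [Finite G] {p : ℕ} [Fact p.Prime] {S : Sylow p G} {K : Subgroup G} {F : Type}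
  [Field F] [Fintype F] {n : ℕ}

/-- The outcome with commuting neighbours. -/
structure TwoShape (S : Sylow p G) (n : ℕ) (Z U Yh U1 U2 Y : Subgroup G) (c : G)
    (ρ' : G →* Matrix.SpecialLinearGroup (Fin 2) F) (θ' : G → Fin 2 → F) : Prop where
  two : Two S Z U Yh U1 U2 (p ^ n)
  hp3 : p = 3
  nat : NatSect (S : Subgroup G) U U2 U1 c ρ' θ'
  ker : ρ'.ker = Cfsg.pCore p G
  hYS : Y ≤ (S : Subgroup G)
  hYQ : Y ⊔ Cfsg.pCore p G = (S : Subgroup G)
  hYp : ∀ y ∈ Y, y ^ p = 1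
  hYc : ∀ x ∈ (S : Subgroup G), ∀ y ∈ Y, ⁅x, y⁆ ∈ Yh
  square : ∃ x ∈ U, ∃ y ∈ (S : Subgroup G), y ^ p = 1 ∧ x ^ p = 1 ∧
    ⁅y, ⁅y, x⁆⁆ ∉ centralizer ((⊤ : Subgroup G) : Set G)

/-- Both outcomes, with the natural module on the centre. -/
theorem Setup.shape (h : Setup S K F n) (hnc : NoChar (S : Subgroup G)) {X : Type*} [Group X] [Finite X]
    (ι : G →* X) (hι : Function.Injective ι)
    (hncX : ∀ T : Subgroup X, T ≤ (S : Subgroup G).map ι →
      normalizer (((S : Subgroup G).map ι : Subgroup X) : Set X) ≤ normalizer (T : Set X) →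
      ι.range ≤ normalizer (T : Set X) → T = ⊥) :
    ∃ (Z : Subgroup G) (c : G) (ρ : G →* Matrix.SpecialLinearGroup (Fin 2) F) (θ : G → Fin 2 → F),
      CentreFacts S Z (p ^ n) ∧ ρ.ker = Cfsg.pCore p G ∧
      NatSect (S : Subgroup G) Z (Z ⊓ centralizer ((⊤ : Subgroup G) : Set G))
        (Z ⊓ centralizer ((S : Subgroup G) : Set G)) c ρ θ ∧
      ((∃ Y, One S Z Y ∧
          Sit X p ι.range ((S : Subgroup G).map ι) ((Cfsg.pCore p G).map ι) (Z.map ι)
            (normalizer (((S : Subgroup G).map ι : Subgroup X) : Set X)) (p ^ n) ∧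
          ∃ a ∈ normalizer (((S : Subgroup G).map ι : Subgroup X) : Set X), ¬ Com (Z.map ι) a) ∨
        ∃ U Yh U1 U2 Y ρ' θ', TwoShape (F := F) S n Z U Yh U1 U2 Y c ρ' θ') := by
  classical
  obtain ⟨Z, hc, hs⟩ := Setup.exists_sit h ι hι _ le_rfl hnc hncX
  obtain ⟨f, hfs, hf, hfS⟩ := Setup.exists_hom h
  obtain ⟨c, hfc⟩ := hfs (PSL.weyl F)
  obtain ⟨ρ, θ, hn⟩ := (hs.centre_sect hι hc).natural h hfs hf hfS hfc
  refine ⟨Z, c, ρ, θ, hc, ?_⟩
  haveI := hc.normal
  haveI hQn : (Cfsg.pCore p G).Normal := H19.pCore_normal p G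
  have hQ : Triv S ρ := fun k hk => (hn.ker k).2 fun a ha => by
    rw [commutatorElement_eq_one_iff_commute.2 (mem_centralizer_iff.1 (hc.cent hk) a ha).symm]; exact one_mem _
  rcases hs.exists_crit with ⟨a, ha, hac⟩ | ⟨hN, g, hg, hgc⟩
  · obtain ⟨Y, h1⟩ := hs.to_one hι ha hac
    exact ⟨h1.ker_eq h hnc hc hn, hn, Or.inl ⟨Y, h1, hs, a, ha, hac⟩⟩
  · obtain ⟨U, Yh, U1, U2, U1', U2', hT, hT', hsq, hcov⟩ := hs.exists_two hι inf_le_right hN hg hgc
    obtain ⟨hp3, ρ', θ', hn', hker, hU2, hcen⟩ := hT.main h hc hn hfs hf hfS hfc hsq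
    obtain ⟨-, -, -, -, -, hU2', -⟩ := hT'.main h hc hn hfs hf hfS hfc hsq
    obtain ⟨Y, hYS, hYQ, hYp, hYc⟩ := hcov hU2'
    have hkQ : ρ.ker = Cfsg.pCore p G := by
      refine Setup.eq_pCore h hQ (Setup.ker_sup_ne hn.surj hn.upper) fun x hx hco => ?_
      haveI := hT.sect.normA
      have hYU : Yh ≤ U := hT.hYh.trans hT.sect.hLA
      have hL := act_normalClosure (Y := Y) hQn hT.sect.normA
        fun u hu y hy => hYU (hYc u (H35.pCore_le_sylow S hu) y hy)
      have hxL : x ∈ normalClosure (Y : Set G) :=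
        coprime_mem_supplement (H35.isPGroup_pCore p G) (Setup.cover_sup h hYS hYQ) hco
      have hxU : x ∈ centralizer (U : Set G) := by
        refine coprime_mem_centralizer_of_series' ((H35.isPGroup_pCore p G).to_le hT.hUQ)
          (by rw [normalizer_eq_top_iff.2 hT.sect.normA]; exact mem_top x) hco
          (N := Z ⊓ centralizer ((⊤ : Subgroup G) : Set G)) (hcen x hx) ?_
        exact mem_centralizer_iff.2 fun z hz => (mem_centralizer_iff.1 hz.2 x (mem_top x)).symm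
      exact Setup.coprime_eq_one h hco (N := U) (fun u hu => by
        rw [← commutatorElement_inv]; exact U.inv_mem (hL (commutator_mem_commutator hu hxL))) hxU
    exact ⟨hkQ, hn, Or.inr ⟨U, Yh, U1, U2, Y, ρ', θ', hT, hp3, hn', hker.trans hkQ, hYS, hYQ, hYp, hYc, hsq⟩⟩

variable {Z U Yh U1 U2 Y : Subgroup G} {c : G} {ρ' : G →* Matrix.SpecialLinearGroup (Fin 2) F}
  {θ' : G → Fin 2 → F}

theorem TwoShape.comm_normalClosure (ht : TwoShape S n Z U Yh U1 U2 Y c ρ' θ') :
    ⁅Cfsg.pCore p G, normalClosure (Y : Set G)⁆ ≤ U :=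
  act_normalClosure (H19.pCore_normal p G) ht.two.sect.normA
    fun u hu y hy => ht.two.sect.hLA (ht.two.hYh (ht.hYc u (H35.pCore_le_sylow S hu) y hy))

/-- The class of `S` is at most three. -/
theorem TwoShape.class_three (ht : TwoShape S n Z U Yh U1 U2 Y c ρ' θ') (hnc : NoChar (S : Subgroup G)) :
    (S : Subgroup G).lowerCentralSeries 3 = ⊥ := by
  set Q := Cfsg.pCore p G with hQdef
  haveI hQn : Q.Normal := H19.pCore_normal p G
  have hQS : Q ≤ (S : Subgroup G) := H35.pCore_le_sylow S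
  haveI hUn := ht.two.sect.normA
  set L := normalClosure (Y : Set G)
  set C := Z ⊓ centralizer ((⊤ : Subgroup G) : Set G)
  haveI hCn : C.Normal := ⟨fun z hz g => by
    rw [mem_centralizer_iff.1 hz.2 g (mem_top g), mul_inv_cancel_right]; exact hz⟩
  have hQL : ⁅Q, L⁆ ≤ U := ht.comm_normalClosure
  have hUQ : ⁅U, Q⁆ ≤ C := ht.two.comm_UQ
  have hCQ : ∀ H : Subgroup G, ⁅C, H⁆ = ⊥ := fun H => by
    rw [commutator_eq_bot_iff_le_centralizer]
    exact inf_le_right.trans (centralizer_le (le_top (a := H)))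
  have h2L : ⁅⁅Q, Q⁆, L⁆ ≤ C := by
    refine H61.three_subgroups_le le_normalizer_of_normal le_normalizer_of_normal le_normalizer_of_normal ?_ ?_
    · exact (commutator_mono hQL le_rfl).trans hUQ
    · rw [commutator_comm L Q]; exact (commutator_mono hQL le_rfl).trans hUQ
  have hU2 : ⁅⁅Q, Q⁆, U⁆ = ⊥ := by
    refine commutator_commutator_eq_bot_of_rotate ?_ ?_
    · rw [eq_bot_iff, ← hCQ Q]
      exact commutator_mono (by rw [commutator_comm]; exact hUQ) le_rfl
    · rw [eq_bot_iff, ← hCQ Q]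
      exact commutator_mono hUQ le_rfl
  have h3L : ⁅⁅⁅Q, Q⁆, Q⁆, L⁆ = ⊥ := by
    refine commutator_commutator_eq_bot_of_rotate ?_ ?_
    · rw [eq_bot_iff, ← hU2, commutator_comm ⁅Q, Q⁆ U]
      exact commutator_mono hQL le_rfl
    · rw [eq_bot_iff, ← hCQ Q]
      exact commutator_mono (by rw [commutator_comm]; exact h2L) le_rfl
  have hn : Y ≤ normalizer (Q : Set G) := le_normalizer_of_normal
  have hdec : ∀ s ∈ (S : Subgroup G), ∃ y ∈ Y, ∃ w ∈ Q, y * w = s := fun s hs => by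
    rw [← ht.hYQ, ← SetLike.mem_coe, coe_mul_of_left_le_normalizer_right _ _ hn] at hs
    exact hs
  set ZS := Z ⊓ centralizer ((S : Subgroup G) : Set G)
  have hYL : ∀ y ∈ Y, y ∈ L := fun y hy => subset_normalClosure hy
  have hSY : ∀ s ∈ (S : Subgroup G), ∀ e ∈ Yh, s * e * s⁻¹ ∈ Yh := fun s hs e he =>
    (mem_normalizer_iff.1 (ht.two.normYh (le_normalizer hs)) e).1 he
  -- the derived subgroup
  have hd2 : (S : Subgroup G).lowerCentralSeries 1 ≤ Yh ⊔ ⁅Q, Q⁆ := by
    refine commutator_le.2 fun s hs t hts => ?_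
    obtain ⟨y, hy, w, hw, rfl⟩ := hdec s hs
    obtain ⟨y', hy', w', hw', rfl⟩ := hdec t hts
    have e : ⁅y * w, y' * w'⁆ = (y * ⁅w, y'⁆ * y⁻¹) * ((y * y') * ⁅w, w'⁆ * (y * y')⁻¹) * ⁅y, y' * w'⁆ := by
      simp only [commutatorElement_def]; group
    rw [e]
    refine mul_mem (mul_mem (mem_sup_left (hSY y (ht.hYS hy) _ (ht.hYc w (hQS hw) y' hy')))
      (mem_sup_right ((inferInstance : ⁅Q, Q⁆.Normal).conj_mem _ (commutator_mem_commutator hw hw') _)))
      (mem_sup_left ?_)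
    rw [← commutatorElement_inv]
    exact inv_mem (ht.hYc _ hts y hy)
  have hd3 : (S : Subgroup G).lowerCentralSeries 2 ≤ ZS ⊔ Q.lowerCentralSeries 2 := by
    haveI := lcs_normal hQn 2
    refine commutator_le.2 fun u hu s hs => ?_
    have hu' := hd2 hu
    rw [← SetLike.mem_coe, coe_mul_of_left_le_normalizer_right _ _ le_normalizer_of_normal] at hu'
    obtain ⟨d, hd, e, he, rfl⟩ := hu'
    obtain ⟨y, hy, w, hw, rfl⟩ := hdec s hs
    have hdS : d ∈ (S : Subgroup G) := hQS (ht.two.hUQ (ht.two.sect.hLA (ht.two.hYh hd)))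
    have e1 : ⁅d * e, y * w⁆ = (d * ⁅e, y⁆ * d⁻¹) * ((d * y) * ⁅e, w⁆ * (d * y)⁻¹) * ⁅d, y * w⁆ := by
      simp only [commutatorElement_def]; group
    rw [e1]
    refine mul_mem (mul_mem (mem_sup_left ?_) (mem_sup_right ?_)) (mem_sup_left (ht.two.comm1 _ (ht.two.hYh hd) _ hs))
    · have hey := h2L (commutator_mem_commutator he (hYL y hy))
      exact ⟨((hCn.conj_mem _ hey d)).1, centralizer_le (le_top (a := (S : Subgroup G))) (hCn.conj_mem _ hey d).2⟩
    · exact (lcs_normal hQn 2).conj_mem _ (show ⁅e, w⁆ ∈ Q.lowerCentralSeries 2 from commutator_mem_commutator he hw) _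
  have hd4 : (S : Subgroup G).lowerCentralSeries 3 ≤ Q.lowerCentralSeries 3 := by
    haveI := lcs_normal hQn 2
    refine commutator_le.2 fun u hu s hs => ?_
    have hu' := hd3 hu
    rw [← SetLike.mem_coe, coe_mul_of_left_le_normalizer_right _ _ le_normalizer_of_normal] at hu'
    obtain ⟨z, hz, e, he, rfl⟩ := hu'
    obtain ⟨y, hy, w, hw, rfl⟩ := hdec s hs
    have hez : e * (y * w) * e⁻¹ ∈ (S : Subgroup G) := by
      have heS : e ∈ (S : Subgroup G) := hQS ((Q.lowerCentralSeries_antitone (Nat.zero_le 2)) he)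
      exact mul_mem (mul_mem heS hs) (inv_mem heS)
    have e1 : ⁅z * e, y * w⁆ = ⁅e, y * w⁆ := by
      simp only [commutatorElement_def]
      rw [show z * e * (y * w) * (z * e)⁻¹ = z * (e * (y * w) * e⁻¹) * z⁻¹ by group,
        ← mem_centralizer_iff.1 hz.2 _ hez, mul_inv_cancel_right]
    have hey : ⁅e, y⁆ = 1 := (mem_bot (G := G)).1 (h3L ▸ commutator_mem_commutator he (hYL y hy))
    have e2 : ⁅e, y * w⁆ = ⁅e, y⁆ * (y * ⁅e, w⁆ * y⁻¹) := by simp only [commutatorElement_def]; group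
    rw [e1, e2, hey, one_mul]
    exact (lcs_normal hQn 3).conj_mem _ (show ⁅e, w⁆ ∈ Q.lowerCentralSeries 3 from commutator_mem_commutator he hw) y
  have hge : Q.lowerCentralSeries 3 ≤ (S : Subgroup G).lowerCentralSeries 3 :=
    commutator_mono (commutator_mono (commutator_mono hQS hQS) hQS) hQS
  have heq := le_antisymm hd4 hge
  rw [heq]
  exact hnc _ (hge.trans ((S : Subgroup G).lowerCentralSeries_antitone (Nat.zero_le 3)))
    (fun α x hx => by rw [← heq] at hx ⊢; exact lcs_aut _ 3 α x hx) (lcs_normal hQn 3)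

/-- `G` acts nilpotently on `O_p(G) / U`. -/
theorem TwoShape.iter_le (ht : TwoShape S n Z U Yh U1 U2 Y c ρ' θ') (h : Setup S K F n) (hnc : NoChar (S : Subgroup G)) :
    Cfsg.iterCommutator (Cfsg.pCore p G) ⊤ 3 ≤ U := by
  set Q := Cfsg.pCore p G
  haveI hQn : Q.Normal := H19.pCore_normal p G
  have hQS : Q ≤ (S : Subgroup G) := H35.pCore_le_sylow S
  haveI hUn := ht.two.sect.normA
  have hQL : ⁅Q, normalClosure (Y : Set G)⁆ ≤ U := ht.comm_normalClosure
  have key : ∀ k, Cfsg.iterCommutator Q ⊤ k ≤ Q.lowerCentralSeries k ⊔ U := by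
    intro k
    induction k with
    | zero => exact le_sup_left
    | succ k ih =>
      haveI := lcs_normal hQn k
      haveI := lcs_normal hQn (k + 1)
      refine (commutator_mono ih le_rfl).trans (commutator_le.2 fun u hu g _ => ?_)
      rw [← SetLike.mem_coe, coe_mul_of_right_le_normalizer_left _ _ le_normalizer_of_normal] at hu
      obtain ⟨d, hd, v, hv, rfl⟩ := hu
      have hg : g ∈ normalClosure (Y : Set G) ⊔ Q := (Setup.cover_sup h ht.hYS ht.hYQ) ▸ mem_top g
      rw [← SetLike.mem_coe, coe_mul_of_right_le_normalizer_left _ _ le_normalizer_of_normal] at hg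
      obtain ⟨l, hl, w, hw, rfl⟩ := hg
      have e : ⁅d * v, l * w⁆ = (d * ⁅v, l * w⁆ * d⁻¹) * (⁅d, l⁆ * (l * ⁅d, w⁆ * l⁻¹)) := by
        simp only [commutatorElement_def]; group
      rw [e]
      refine mul_mem (mem_sup_right (hUn.conj_mem _ ?_ d)) (mul_mem (mem_sup_right (hQL (commutator_mem_commutator
        ((Q.lowerCentralSeries_antitone (Nat.zero_le k)) hd) hl))) (mem_sup_left ?_))
      · rw [commutatorElement_def, show v * (l * w) * v⁻¹ * (l * w)⁻¹ = v * (l * w * v⁻¹ * (l * w)⁻¹) by group]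
        exact U.mul_mem hv (hUn.conj_mem _ (U.inv_mem hv) _)
      · exact (lcs_normal hQn (k + 1)).conj_mem _ (show ⁅d, w⁆ ∈ Q.lowerCentralSeries (k + 1) from
          commutator_mem_commutator hd hw) l
  refine (key 3).trans (sup_le ?_ le_rfl)
  have : Q.lowerCentralSeries 3 ≤ (S : Subgroup G).lowerCentralSeries 3 :=
    commutator_mono (commutator_mono (commutator_mono hQS hQS) hQS) hQS
  rw [ht.class_three hnc, le_bot_iff] at this
  rw [this]; exact bot_le

/-- The exponent of `S` divides nine, and is not three. -/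
theorem TwoShape.exponent_nine (ht : TwoShape S n Z U Yh U1 U2 Y c ρ' θ') (hnc : NoChar (S : Subgroup G)) :
    Monoid.exponent ↥(S : Subgroup G) = 9 := by
  set Q := Cfsg.pCore p G
  haveI hQn : Q.Normal := H19.pCore_normal p G
  have hQS : Q ≤ (S : Subgroup G) := H35.pCore_le_sylow S
  haveI hUn := ht.two.sect.normA
  have hYU : Yh ≤ U := ht.two.hYh.trans ht.two.sect.hLA
  set C := Z ⊓ centralizer ((⊤ : Subgroup G) : Set G)
  have hp3 := ht.hp3
  have hCY : C ≤ Yh := inf_le_left.trans ht.two.hZYh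
  have hn : Y ≤ normalizer (Q : Set G) := le_normalizer_of_normal
  have hUQC : ∀ {u v : G}, u ∈ U → v ∈ Q → ⁅u, v⁆ ∈ C := fun hu hv => ht.two.comm_UQ (commutator_mem_commutator hu hv)
  have hYh3 : ∀ e ∈ Yh, e ^ 3 = 1 := fun e he => hp3 ▸ ht.two.elem.2 e he
  -- ninth powers come from `O_p(G)`
  have h9 : ∀ y ∈ Y, ∀ w ∈ Q, (y * w) ^ 9 = w ^ 9 := by
    intro y hy w hw
    have hy3 : y ^ 3 = 1 := hp3 ▸ ht.hYp y hy
    set g1 := ⁅y, w⁆
    set g2 := ⁅y ^ 2, w⁆
    have hg1 : g1 ∈ Yh := by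
      show ⁅y, w⁆ ∈ Yh
      rw [← commutatorElement_inv]; exact inv_mem (ht.hYc w (hQS hw) y hy)
    have hg2 : g2 ∈ Yh := by
      show ⁅y ^ 2, w⁆ ∈ Yh
      rw [← commutatorElement_inv]; exact inv_mem (ht.hYc w (hQS hw) _ (pow_mem hy 2))
    have hwg : ⁅w, g2⁆ ∈ Yh := by
      rw [← commutatorElement_inv]; exact inv_mem (hCY (hUQC (hYU hg2) hw))
    set g := g1 * ⁅w, g2⁆ * g2 with hg
    have hgY : g ∈ Yh := mul_mem (mul_mem hg1 hwg) hg2
    have hcube : (y * w) ^ 3 = g * w ^ 3 := by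
      have e1 : (y * w) ^ 3 = y * w * y⁻¹ * (y ^ 2 * w * (y ^ 2)⁻¹) * (y ^ 3 * w) := by
        rw [pow_succ, pow_succ, pow_one]; group
      rw [e1, hy3, one_mul, hg]
      simp only [g1, g2, commutatorElement_def]; group
    rw [show 9 = 3 * 3 from rfl, pow_mul, hcube, pow_mul]
    have hz := hUQC (hYU hgY) (pow_mem hw 3)
    have hz' : ⁅w ^ 3, g⁆ ∈ Q ⊓ centralizer (Q : Set G) := by
      have : ⁅w ^ 3, g⁆ ∈ C := by rw [← commutatorElement_inv]; exact C.inv_mem hz
      exact ⟨ht.two.hUQ (hYU (hCY this)), centralizer_le (le_top (a := Q)) this.2⟩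
    rw [mul_pow_class_two (ht.two.hUQ (hYU hgY)) (pow_mem hw 3) hz', hYh3 g hgY, one_mul]
    have hz3 : ⁅w ^ 3, g⁆ ^ 3 = 1 := hYh3 _ (hCY (by rw [← commutatorElement_inv]; exact C.inv_mem hz))
    rw [show 3 * (3 - 1) / 2 = 3 from rfl, hz3, mul_one]
  have hdec : ∀ s ∈ (S : Subgroup G), ∃ y ∈ Y, ∃ w ∈ Q, y * w = s := fun s hs => by
    rw [← ht.hYQ, ← SetLike.mem_coe, coe_mul_of_left_le_normalizer_right _ _ hn] at hs
    exact hs
  have heq : powSub (S : Subgroup G) 9 = powSub Q 9 := by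
    refine le_antisymm ((Subgroup.closure_le _).2 ?_) (Subgroup.closure_mono fun x ⟨s, hs, e⟩ => ⟨s, hQS hs, e⟩)
    rintro _ ⟨s, hs, rfl⟩
    obtain ⟨y, hy, w, hw, rfl⟩ := hdec s hs
    rw [h9 y hy w hw]
    exact Subgroup.subset_closure ⟨w, hw, rfl⟩
  have hall : ∀ s ∈ (S : Subgroup G), s ^ 9 = 1 := by
    have hbot : powSub (S : Subgroup G) 9 = ⊥ :=
      hnc _ (powSub_le _ _) (powSub_aut _ _) (heq ▸ powSub_normal hQn 9)
    exact fun s hs => (mem_bot (G := G)).1 (hbot ▸ Subgroup.subset_closure ⟨s, hs, rfl⟩)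
  -- an element of order nine
  obtain ⟨x, hx, y, hy, hy3, hx3, hne⟩ := ht.square
  rw [hp3] at hy3 hx3
  have hxS : x ∈ (S : Subgroup G) := hQS (ht.two.hUQ hx)
  have hne3 : (x * y) ^ 3 ≠ 1 := by
    intro hcube
    apply hne
    set a := ⁅y, x⁆ with ha
    have haU : a ∈ U := ht.two.sect.hLA (ht.two.sect.quad y hy x hx)
    set T := ⁅y, a⁆ with hT
    have hT' : T ∈ Z ⊓ centralizer ((S : Subgroup G) : Set G) := by
      rw [hT, ← commutatorElement_inv]; exact inv_mem (ht.two.comm1 _ (ht.two.sect.quad y hy x hx) y hy)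
    have e1 : (x * y) ^ 3 = x * (a * x) * (T * a * a * x) * y ^ 3 := by
      simp only [hT, ha, commutatorElement_def, pow_succ, pow_zero]; group
    rw [e1, hy3, mul_one] at hcube
    haveI hCn : C.Normal := ⟨fun z hz g => by
      rw [mem_centralizer_iff.1 hz.2 g (mem_top g), mul_inv_cancel_right]; exact hz⟩
    let π := QuotientGroup.mk' C
    have hπ : ∀ {u v : G}, u ∈ U → v ∈ U → Commute (π u) (π v) := fun {u v} hu hv => by
      rw [← commutatorElement_eq_one_iff_commute, ← map_commutatorElement]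
      exact (QuotientGroup.eq_one_iff _).2 (hUQC hu (ht.two.hUQ hv))
    have hTU : T ∈ U := ht.two.sect.hLA (ht.two.hYh (ht.two.hZYh hT'.1))
    have ha3 : π a ^ 3 = 1 := by
      rw [← map_pow]; exact (QuotientGroup.eq_one_iff _).2 (hp3 ▸ ht.two.powU a haU)
    have hx3' : π x ^ 3 = 1 := by rw [← map_pow, hx3, map_one]
    have h1 := congrArg π hcube
    simp only [map_mul, map_one] at h1
    have h2 : π T = 1 := by
      calc π T = π T * (π x ^ 3 * π a ^ 3) := by rw [hx3', ha3, one_mul, mul_one]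
        _ = π x * (π a * π x) * (π T * π a * π a * π x) := by
          have c1 := hπ hx haU
          have c2 := hπ hTU hx
          have c3 := hπ hTU haU
          rw [(c1.symm).eq, ← mul_assoc (π x) (π x), ← mul_assoc (π x * π x * π a)]
          rw [← mul_assoc (π x * π x * π a), ← mul_assoc (π x * π x * π a)]
          rw [((c2.mul_right c2).mul_right c3).eq.symm]
          rw [mul_assoc (π T), mul_assoc (π T), mul_assoc (π T)]
          congr 1
          rw [mul_assoc _ (π a) (π a), mul_assoc _ (π a * π a) (π x), ((c1.symm).mul_left c1.symm).eq]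
          simp only [pow_succ, pow_zero, one_mul, mul_assoc]
          rw [← mul_assoc (π a) (π x) (π a * π a), c1.symm.eq, mul_assoc]
        _ = 1 := h1
    exact ((QuotientGroup.eq_one_iff _).1 h2).2
  have hd : Monoid.exponent ↥(S : Subgroup G) ∣ 9 :=
    Monoid.exponent_dvd_of_forall_pow_eq_one fun s => Subtype.ext (hall s s.2)
  obtain ⟨i, hi, he⟩ := (Nat.dvd_prime_pow Nat.prime_three).1 (show Monoid.exponent ↥(S : Subgroup G) ∣ 3 ^ 2 from hd)
  have h3 : ¬ Monoid.exponent ↥(S : Subgroup G) ∣ 3 := fun hh => hne3 (by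
    have := Monoid.pow_exponent_eq_one (⟨x * y, mul_mem hxS hy⟩ : (S : Subgroup G))
    obtain ⟨j, hj⟩ := hh
    rw [hj, pow_mul]
    have h5 := congrArg Subtype.val this
    simp only [SubgroupClass.coe_pow, OneMemClass.coe_one] at h5
    rw [h5, one_pow])
  interval_cases i
  · exact absurd (he ▸ one_dvd 3) h3
  · exact absurd (he ▸ dvd_rfl) h3
  · simpa using he

/-- A chief factor is natural or drops below a natural layer. -/
theorem NatSect.natural_or_below {S A B L : Subgroup G} {ρ : G →* Matrix.SpecialLinearGroup (Fin 2) F}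
    {θ : G → Fin 2 → F} (h : NatSect S A B L c ρ θ) {U W : Subgroup G} [W.Normal]
    (hc : Cfsg.IsChiefFactor U W) (hUA : U ≤ (U ⊓ A) ⊔ W) (hW : ∀ w ∈ W, ρ w = 1) :
    Cfsg.IsNaturalSL2Module F (U.map (QuotientGroup.mk' W)) (⊤ : Subgroup (G ⧸ W)) ∨ U ≤ (U ⊓ B) ⊔ W := by
  by_cases hUB : U ⊓ B ≤ W
  · exact Or.inl (h.natural_chief hc hUA hUB hW)
  · haveI := hc.2.1
    haveI := h.normB
    rcases hc.2.2.2 ((U ⊓ B) ⊔ W) inferInstance le_sup_right (sup_le inf_le_left hc.1.le) with e | e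
    · exact absurd (le_sup_left.trans e.le) hUB
    · exact Or.inr e.ge

end Cfsg.Agent.H72.Push
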