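import Cfsg.Agent.H72.Push.Qd
import Cfsg.Prelude.Def_BaumannBlocks
import Mathlib

/-! A maximal `p`-local subgroup that is not pushed up, `p ≥ 5`. -/

set_option autoImplicit false
set_option linter.style.haveILetI false

open scoped commutatorElement

namespace Cfsg.Agent.H72.Push

open Cfsg.Agent Subgroup RankOne

theorem local_qd {H : Type*} [Group H] [Finite H] {p : ℕ} [Fact p.Prime] (hp : 5 ≤ p) (G : Subgroup H)
    (hmax : ∀ R : Subgroup H, IsPGroup p ↥R → R ≠ ⊥ → G ≤ Subgroup.normalizer (R : Set H) →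
      Subgroup.normalizer (R : Set H) = G)
    (S : Sylow p ↥G) (K : Subgroup ↥G) (F : Type) [Field F] [Fintype F] (n : ℕ) (h : Setup S K F n)
    (hN : ¬ Subgroup.normalizer (((S : Subgroup ↥G).map G.subtype : Subgroup H) : Set H) ≤ G) :
    ∃ G₀ E : Subgroup H, Cfsg.IsInternalDirectProduct G₀ E G ∧ Cfsg.IsElementaryAbelian p E ∧
      Nonempty (↥G₀ ≃* ↥(Cfsg.qdOver F)) := by
  classical
  have hι := G.subtype_injective
  set S' := (S : Subgroup ↥G).map G.subtype with hS'
  have hS'p : IsPGroup p S' := S.2.map G.subtype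
  -- a subgroup of `S` normalised by `G` and by the normalizer of `S` is trivial
  have hfix : ∀ T : Subgroup H, T ≤ S' → normalizer (S' : Set H) ≤ normalizer (T : Set H) →
      G.subtype.range ≤ normalizer (T : Set H) → T = ⊥ := by
    intro T hTS hA hM
    by_contra hne
    exact hN (hA.trans_eq (hmax T (hS'p.to_le hTS) hne (G.range_subtype.symm.le.trans hM)))
  have hnc : NoChar (S : Subgroup ↥G) := by
    intro T hTS hinv hTn
    have hT : T.map G.subtype = ⊥ := by
      refine hfix _ (map_mono hTS) (fun x hx => ?_) ?_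
      · let α : ↥(S : Subgroup ↥G) → ↥(S : Subgroup ↥G) := fun s =>
          ⟨⟨x * ((s : G) : H) * x⁻¹, map_subtype_le _ ((mem_normalizer_iff.1 hx _).1 (mem_map_of_mem G.subtype s.2))⟩, by
            obtain ⟨y, hy, hyx⟩ := (mem_normalizer_iff.1 hx _).1 (mem_map_of_mem G.subtype s.2)
            show (_ : ↥G) ∈ (S : Subgroup ↥G)
            refine Set.mem_of_eq_of_mem ?_ hy
            apply Subtype.ext
            exact hyx.symm⟩
        let β : ↥(S : Subgroup ↥G) → ↥(S : Subgroup ↥G) := fun s =>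
          ⟨⟨x⁻¹ * ((s : G) : H) * x, map_subtype_le _ ((mem_normalizer_iff''.1 hx _).1 (mem_map_of_mem G.subtype s.2))⟩, by
            obtain ⟨y, hy, hyx⟩ := (mem_normalizer_iff''.1 hx _).1 (mem_map_of_mem G.subtype s.2)
            show (_ : ↥G) ∈ (S : Subgroup ↥G)
            refine Set.mem_of_eq_of_mem ?_ hy
            apply Subtype.ext
            exact hyx.symm⟩
        let e : ↥(S : Subgroup ↥G) ≃* ↥(S : Subgroup ↥G) :=
          { toFun := α
            invFun := β
            left_inv := fun s => Subtype.ext (Subtype.ext (by simp [α, β]; group))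
            right_inv := fun s => Subtype.ext (Subtype.ext (by simp [α, β]; group))
            map_mul' := fun s s' => Subtype.ext (Subtype.ext (by simp [α, mul_assoc])) }
        refine mem_normalizer_iff.2 fun y => ⟨?_, ?_⟩
        · rintro ⟨u, hu, rfl⟩
          exact ⟨_, hinv e ⟨u, hTS hu⟩ hu, rfl⟩
        · rintro ⟨u, hu, hux⟩
          refine ⟨_, hinv e.symm ⟨u, hTS hu⟩ hu, ?_⟩
          show x⁻¹ * (u : H) * x = y
          rw [show (u : H) = x * y * x⁻¹ from hux]
          group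
      · rw [MonoidHom.range_eq_map, ← normalizer_eq_top_iff.2 hTn]
        exact Subgroup.le_normalizer_map G.subtype
    exact (Subgroup.map_eq_bot_iff_of_injective _ hι).1 hT
  obtain ⟨Z, c, ρ, θ, hc, hk, hn, hcase⟩ := Setup.shape h hnc G.subtype hι hfix
  rcases hcase with ⟨Y, h1, hs, a, ha, hac⟩ | ⟨U, Yh, U1, U2, Y, ρ', θ', ht⟩
  swap
  · have := ht.hp3; omega
  haveI hQn : (Cfsg.pCore p ↥G).Normal := H19.pCore_normal p ↥G
  -- `O_p(G)` is abelian
  have hQab : ⁅Cfsg.pCore p ↥G, Cfsg.pCore p ↥G⁆ = ⊥ := by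
    by_contra hne
    set D := (⁅Cfsg.pCore p ↥G, Cfsg.pCore p ↥G⁆).map G.subtype
    have hD : cj a D = D := by
      show cj a ((⁅Cfsg.pCore p ↥G, Cfsg.pCore p ↥G⁆).map G.subtype) = (⁅Cfsg.pCore p ↥G, Cfsg.pCore p ↥G⁆).map G.subtype
      rw [map_commutator _ _ G.subtype]
      exact hs.derived_fixed ha hac
    have hDn : G ≤ normalizer (D : Set H) := by
      conv_lhs => rw [← G.range_subtype, MonoidHom.range_eq_map,
        ← normalizer_eq_top_iff.2 (inferInstance : (⁅Cfsg.pCore p ↥G, Cfsg.pCore p ↥G⁆).Normal)]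
      exact Subgroup.le_normalizer_map G.subtype
    have haD : a ∈ normalizer (D : Set H) := mem_normalizer_iff.2 fun y => by
      conv_rhs => rw [← hD, mem_cj]
      simp [mul_assoc]
    have hDp : IsPGroup p D :=
      hS'p.to_le (map_mono ((commutator_le_left _ _).trans (H35.pCore_le_sylow S)))
    rw [hmax D hDp (fun e => hne ((Subgroup.map_eq_bot_iff_of_injective _ hι).1 e)) hDn, ← G.range_subtype] at haD
    exact hac (by rw [Com, hs.cjZ haD]; exact hs.hZQ.trans hs.hQZ)
  -- the cover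
  set W := cj a (Z.map G.subtype)
  have hcov := hs.one_cover ha hac
  have hW : W ≤ S' := le_sup_left.trans hcov.le
  have hYQ : W.comap G.subtype ⊔ Cfsg.pCore p ↥G = (S : Subgroup ↥G) := by
    apply map_injective hι
    rw [Subgroup.map_sup, map_comap_eq_self (hW.trans (map_le_range _ _))]
    exact hcov
  have hYab : ∀ u ∈ W.comap G.subtype, ∀ v ∈ W.comap G.subtype, u * v = v * u := by
    rintro u ⟨u', hu', hu⟩ v ⟨v', hv', hv⟩
    apply hι
    rw [map_mul, map_mul, ← hu, ← hv, ← map_mul, ← map_mul, hs.zcomm u' hu' v' hv']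
  obtain ⟨G₀, E, hcomm, hinf, hsup, hE, ⟨e⟩⟩ := qd_split hp h hc hk hn hQab
    (fun s hs' => (h1.exponent hnc hc s hs').2 (by omega)) (h1.comm_le h hnc hc) hYQ hYab
  refine ⟨G₀.map G.subtype, E.map G.subtype, ⟨map_subtype_le _, map_subtype_le _, ?_, ?_, ?_⟩, ⟨?_, ?_⟩,
    ⟨(G₀.equivMapOfInjective G.subtype hι).symm.trans e⟩⟩
  · rintro _ ⟨u, hu, rfl⟩ _ ⟨v, hv, rfl⟩
    rw [← map_mul, ← map_mul, hcomm u hu v hv]
  · rw [← Subgroup.map_inf _ _ _ hι, hinf, Subgroup.map_bot]
  · rw [← Subgroup.map_sup, hsup, ← MonoidHom.range_eq_map, G.range_subtype]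
  · haveI := hE.1
    exact Subgroup.map_isMulCommutative E G.subtype
  · rintro _ ⟨u, hu, rfl⟩
    rw [← map_pow, hE.2 u hu, map_one]

end Cfsg.Agent.H72.Push
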