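import Cfsg.Agent.H72.Push.Results
import Cfsg.Prelude.Def_BaumannBlocks
import Mathlib

/-! A rank one pushing up group with abelian `O_p` splits as `Qd × E`. -/

set_option autoImplicit false
set_option linter.style.haveILetI false
set_option linter.unusedSectionVars false
set_option maxHeartbeats 1000000

open scoped commutatorElement

namespace Cfsg.Agent.H72.Push

open Cfsg.Agent Subgroup RankOne H75.SL2Natural

section Ambient

variable {X : Type*} [Group X] [Finite X] {p : ℕ} {M S Q Z A : Subgroup X} {q : ℕ}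

/-- The cover given by a noncommuting neighbour. -/
theorem Sit.one_cover (h : Sit X p M S Q Z A q) {a : X} (ha : a ∈ A) (hac : ¬ Com Z a) : cj a Z ⊔ Q = S := by
  have hN : Near M A Z 1 := fun n hn g hg => by
    obtain rfl : n = 0 := by omega
    rw [Com, h.cjZ hg]; exact h.hZQ.trans h.hQZ
  have := h.first_cover (k := 0) hN ha (show (1 : X) ∈ dist M A 0 from one_mem _) (by rwa [mul_one])
  rwa [mul_one] at this

/-- The derived group of `Q` is fixed by a noncommuting neighbour. -/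
theorem Sit.derived_fixed (h : Sit X p M S Q Z A q) {a : X} (ha : a ∈ A) (hac : ¬ Com Z a) :
    cj a ⁅Q, Q⁆ = ⁅Q, Q⁆ := by
  have key : ∀ a ∈ A, ¬ Com Z a → ⁅Q, Q⁆ = ⁅Q ⊓ cj a Q, Q ⊓ cj a Q⁆ := by
    intro a ha hac
    refine le_antisymm (commutator_le.2 fun u hu v hv => ?_) (commutator_mono inf_le_left inf_le_left)
    have hcov : Z ⊔ cj a Q = S := by
      have h1 := congrArg (cj a) (h.one_cover (A.inv_mem ha) (fun hc => hac (com_inv_iff.1 hc)))
      rwa [cj_sup, cj_cj, mul_inv_cancel, cj_one, h.cjA ha] at h1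
    have hn : cj a Q ≤ normalizer (Z : Set X) :=
      ((cj_mono a h.hQS).trans_eq (h.cjA ha)).trans (h.hSM.trans h.hZn)
    have hsplit : ∀ u ∈ Q, ∃ z ∈ Z, ∃ w ∈ Q ⊓ cj a Q, z * w = u := fun u hu => by
      have hu' : u ∈ Z ⊔ cj a Q := hcov.ge (h.hQS hu)
      rw [← SetLike.mem_coe, coe_mul_of_right_le_normalizer_left Z _ hn] at hu'
      obtain ⟨z, hz, w, hw, rfl⟩ := hu'
      refine ⟨z, hz, w, ⟨?_, hw⟩, rfl⟩
      have := Q.mul_mem (Q.inv_mem (h.hZQ hz)) hu
      rwa [inv_mul_cancel_left] at this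
    obtain ⟨z, hz, w, hw, rfl⟩ := hsplit u hu
    obtain ⟨z', hz', w', hw', rfl⟩ := hsplit v hv
    have c1 : ∀ {z x : X}, z ∈ Z → x ∈ Q → x * z = z * x := fun {z x} hz hx =>
      (mem_centralizer_iff.1 (h.hQZ hx) z hz).symm
    have e : ⁅z * w, z' * w'⁆ = ⁅w, w'⁆ := by
      have d1 : Commute z (z' * w') := (c1 hz (Q.mul_mem (h.hZQ hz') hw'.1)).symm
      have d2 : Commute w z' := c1 hz' hw.1
      have d3 : Commute z ⁅w, w'⁆ := (c1 hz (by
        rw [commutatorElement_def]; exact Q.mul_mem (Q.mul_mem (Q.mul_mem hw.1 hw'.1) (Q.inv_mem hw.1)) (Q.inv_mem hw'.1))).symm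
      have d4 : Commute z' ⁅w, w'⁆ := (c1 hz' (by
        rw [commutatorElement_def]; exact Q.mul_mem (Q.mul_mem (Q.mul_mem hw.1 hw'.1) (Q.inv_mem hw.1)) (Q.inv_mem hw'.1))).symm
      calc ⁅z * w, z' * w'⁆ = z * ⁅w, z' * w'⁆ * z⁻¹ * ⁅z, z' * w'⁆ := by simp only [commutatorElement_def]; group
        _ = z * (⁅w, z'⁆ * (z' * ⁅w, w'⁆ * z'⁻¹)) * z⁻¹ := by
          rw [commutatorElement_eq_one_iff_commute.2 d1]; simp only [commutatorElement_def]; group
        _ = z * ⁅w, w'⁆ * z⁻¹ := by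
          rw [commutatorElement_eq_one_iff_commute.2 d2, d4.eq]; group
        _ = ⁅w, w'⁆ := by rw [d3.eq]; group
    rw [e]
    exact commutator_mem_commutator hw hw'
  have h1 := key a ha hac
  have h2 := key a⁻¹ (A.inv_mem ha) (fun hc => hac (com_inv_iff.1 hc))
  conv_lhs => rw [h2, cj_commutator, cj_inf, cj_cj, mul_inv_cancel, cj_one, inf_comm]
  exact h1.symm

end Ambient

variable {G : Type*} [Group G] [Finite G] {p : ℕ} [Fact p.Prime] {S : Sylow p G} {K : Subgroup G} {F : Type}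
  [Field F] [Fintype F] {n : ℕ} {Z Y : Subgroup G} {c : G} {ρ : G →* Matrix.SpecialLinearGroup (Fin 2) F}
  {θ : G → Fin 2 → F}

/-- Every upper transvection is a commutator of torus and transvection when `p ≥ 5`. -/
theorem xu_commutator (hp : 5 ≤ p) [CharP F p] (t : F) :
    ∃ (u : Fˣ) (b : F), ⁅(hh u : Matrix.SpecialLinearGroup (Fin 2) F), xu b⁆ = xu t := by
  have h2 : (2 : F) ≠ 0 := fun h0 => by
    have := (CharP.cast_eq_zero_iff F p 2).1 (by exact_mod_cast h0)
    have := Nat.le_of_dvd (by norm_num) this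
    omega
  have h3 : (3 : F) ≠ 0 := fun h0 => by
    have := (CharP.cast_eq_zero_iff F p 3).1 (by exact_mod_cast h0)
    have := Nat.le_of_dvd (by norm_num) this
    omega
  refine ⟨Units.mk0 2 h2, t / 3, ?_⟩
  rw [commutatorElement_def, hh_xu, mul_inv_cancel_right]
  rw [mul_inv_eq_iff_eq_mul, ← xu_add]
  congr 1
  rw [Units.val_mk0]
  field_simp
  ring

/-- The splitting. -/
theorem qd_split (hp5 : 5 ≤ p) (h : Setup S K F n) (hc : CentreFacts S Z (p ^ n)) (hk : ρ.ker = Cfsg.pCore p G)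
    (hn : NatSect (S : Subgroup G) Z (Z ⊓ centralizer ((⊤ : Subgroup G) : Set G))
      (Z ⊓ centralizer ((S : Subgroup G) : Set G)) c ρ θ)
    (hQab : ⁅Cfsg.pCore p G, Cfsg.pCore p G⁆ = ⊥) (hexp : ∀ s ∈ (S : Subgroup G), s ^ p = 1)
    (hcomm : ∀ x ∈ Cfsg.pCore p G, ∀ g : G, ⁅x, g⁆ ∈ Z) (hYQ : Y ⊔ Cfsg.pCore p G = (S : Subgroup G))
    (hYab : ∀ a ∈ Y, ∀ b ∈ Y, a * b = b * a) :
    ∃ G₀ E : Subgroup G, (∀ a ∈ G₀, ∀ b ∈ E, a * b = b * a) ∧ G₀ ⊓ E = ⊥ ∧ G₀ ⊔ E = ⊤ ∧
      Cfsg.IsElementaryAbelian p E ∧ Nonempty (↥G₀ ≃* ↥(Cfsg.qdOver F)) := by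
  classical
  set Q := Cfsg.pCore p G with hQdef
  have hp : p.Prime := Fact.out
  haveI : CharP F p := charP_of_card h.card
  haveI hQn : Q.Normal := H19.pCore_normal p G
  haveI := hc.normal
  have hQS : Q ≤ (S : Subgroup G) := H35.pCore_le_sylow S
  have h2F : (2 : F) ≠ 0 := fun h0 => by
    have := (CharP.cast_eq_zero_iff F p 2).1 (by exact_mod_cast h0)
    have := Nat.le_of_dvd (by norm_num) this
    omega
  have hQc : ∀ {a b : G}, a ∈ Q → b ∈ Q → Commute a b := fun {a b} ha hb =>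
    (mem_centralizer_iff.1 ((commutator_eq_bot_iff_le_centralizer.1 hQab) ha) b hb).symm
  have hQexp : ∀ {a : G}, a ∈ Q → a ^ p = 1 := fun ha => hexp _ (hQS ha)
  obtain ⟨j, hj⟩ := hp.eq_two_or_odd'.resolve_left (by omega : p ≠ 2)
  have hhalf : ∀ {a : G}, a ∈ Q → (a ^ (j + 1)) ^ 2 = a := fun {a} ha => by
    rw [← pow_mul, show (j + 1) * 2 = p + 1 by omega, pow_succ, hQexp ha, one_mul]
  have hsq : ∀ {a : G}, a ∈ Q → a ^ 2 = 1 → a = 1 := fun {a} ha h2 => by
    rw [← hhalf ha, ← pow_mul, mul_comm, pow_mul, h2, one_pow]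
  -- the central involution
  obtain ⟨g₀, hg₀⟩ := hn.surj (hh (-1))
  have hneg1 : (hh (-1 : Fˣ) : Matrix.SpecialLinearGroup (Fin 2) F) * hh (-1) = 1 := by
    rw [← hh_mul, neg_one_mul, neg_neg]
    apply Subtype.ext
    rw [hh_val]; ext a b; fin_cases a <;> fin_cases b <;> simp
  obtain ⟨t, ht2, htρ⟩ : ∃ t : G, t * t = 1 ∧ ρ t = hh (-1) := by
    have h1 : g₀ * g₀ ∈ Q := by rw [← hk, MonoidHom.mem_ker, map_mul, hg₀, hneg1]
    refine ⟨g₀ ^ p, ?_, ?_⟩
    · rw [← pow_add, ← two_mul, pow_mul, sq, hQexp h1]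
    · rw [map_pow, hg₀, hj, pow_succ, pow_mul, sq, hneg1, one_pow, one_mul]
  have htinv : t⁻¹ = t := inv_eq_of_mul_eq_one_right ht2
  have hscal : ∀ v : Fin 2 → F, (ρ t).1.mulVec v = -v := fun v => by
    rw [htρ, hh_val]; ext a; fin_cases a <;> simp [Matrix.mulVec, dotProduct, Fin.sum_univ_two]
  have htg : ∀ g : G, ⁅t, g⁆ ∈ Q := fun g => by
    rw [← hk, MonoidHom.mem_ker, map_commutatorElement, commutatorElement_eq_one_iff_commute, htρ]
    refine Subtype.ext ?_
    rw [Matrix.SpecialLinearGroup.coe_mul, Matrix.SpecialLinearGroup.coe_mul, hh_val]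
    rw [show (!![((-1 : Fˣ) : F), 0; 0, (((-1 : Fˣ)⁻¹ : Fˣ) : F)] : Matrix (Fin 2) (Fin 2) F) = -1 by
      ext a b; fin_cases a <;> fin_cases b <;> simp]
    simp
  have hzc : ∀ {a b : G}, a ∈ Z → b ∈ Q → Commute a b := fun ha hb => hQc (hc.le ha) hb
  -- the plane
  let V : Subgroup G :=
    { carrier := {v | v ∈ Z ∧ t * v * t⁻¹ = v⁻¹}
      one_mem' := ⟨one_mem _, by simp⟩
      mul_mem' := fun {a b} ha hb => ⟨mul_mem ha.1 hb.1, by
        rw [show t * (a * b) * t⁻¹ = (t * a * t⁻¹) * (t * b * t⁻¹) by group, ha.2, hb.2, mul_inv_rev]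
        exact (hzc (inv_mem ha.1) (Q.inv_mem (hc.le hb.1))).eq⟩
      inv_mem' := fun {a} ha => ⟨inv_mem ha.1, by
        rw [show t * a⁻¹ * t⁻¹ = (t * a * t⁻¹)⁻¹ by group, ha.2]⟩ }
  have hVQ : ∀ {v : G}, v ∈ V → v ∈ Q := fun hv => hc.le hv.1
  have hθzero : ∀ {v : G}, v ∈ V → θ v = 0 → v = 1 := fun {v} hv h0 => by
    have h1 := ((hn.map_eq_zero v hv.1).1 h0).2
    refine hsq (hVQ hv) ?_
    have h2 := hv.2
    rw [mem_centralizer_iff.1 h1 t (mem_top t), mul_inv_cancel_right] at h2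
    rw [sq]
    nth_rewrite 1 [h2]
    rw [inv_mul_cancel]
  have hθonto : ∀ w : Fin 2 → F, ∃ v ∈ V, θ v = w := fun w => by
    obtain ⟨a, ha, haw⟩ := hn.onto w
    have hb := hn.normA.conj_mem _ ha t
    set d := a * (t * a * t⁻¹)⁻¹ with hd
    have hdZ : d ∈ Z := Z.mul_mem ha (Z.inv_mem hb)
    have hdt : t * d * t⁻¹ = d⁻¹ := by
      rw [hd]
      calc t * (a * (t * a * t⁻¹)⁻¹) * t⁻¹ = (t * a * t⁻¹) * ((t * t) * a⁻¹ * (t * t)⁻¹) := by group
        _ = (t * a * t⁻¹) * a⁻¹ := by rw [ht2]; group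
        _ = _ := by group
    refine ⟨d ^ (j + 1), V.pow_mem ⟨hdZ, hdt⟩ _, ?_⟩
    have hpow : ∀ m : ℕ, θ (d ^ m) = (m : F) • θ d := by
      intro m
      induction m with
      | zero => simp [hn.map_one']
      | succ m ih => rw [pow_succ, hn.map_mul _ (pow_mem hdZ m) _ hdZ, ih]; push_cast; rw [add_smul, one_smul]
    rw [hpow, hd, hn.map_mul _ ha _ (Z.inv_mem hb), hn.map_inv' hb, hn.equiv t a ha, hscal, neg_neg, haw]
    ext i
    simp only [Pi.smul_apply, Pi.add_apply, smul_eq_mul]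
    have h1 : ((2 * (j + 1) : ℕ) : F) = 1 := by
      rw [show 2 * (j + 1) = p + 1 by omega]; push_cast; rw [CharP.cast_eq_zero F p, zero_add]
    push_cast at h1 ⊢
    linear_combination (w i) * h1
  haveI hVn : V.Normal := ⟨fun v hv g => ⟨hn.normA.conj_mem _ hv.1 g, by
    have hk' : ∀ x ∈ Z, ⁅t, g⁆ * (g * x * g⁻¹) * ⁅t, g⁆⁻¹ = g * x * g⁻¹ := fun x hx => by
      rw [← (hzc (hn.normA.conj_mem _ hx g) (htg g)).eq, mul_inv_cancel_right]
    calc t * (g * v * g⁻¹) * t⁻¹ = ⁅t, g⁆ * (g * (t * v * t⁻¹) * g⁻¹) * ⁅t, g⁆⁻¹ := by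
          simp only [commutatorElement_def]; group
      _ = g * (t * v * t⁻¹) * g⁻¹ := by rw [hv.2]; exact hk' _ (inv_mem hv.1)
      _ = (g * v * g⁻¹)⁻¹ := by rw [hv.2]; group⟩⟩
  set C := centralizer ({t} : Set G) with hC
  have hCt : ∀ {g : G}, g ∈ C → g * t = t * g := fun hg => mem_centralizer_singleton_iff.1 hg
  have hCmem : ∀ {g : G}, t * g * t⁻¹ = g → g ∈ C := fun {g} hg => mem_centralizer_singleton_iff.2 (by
    calc g * t = t * g * t⁻¹ * t := by rw [hg]
      _ = t * g := by group)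
  set E := Q ⊓ C with hEdef
  have hVC : ∀ {v : G}, v ∈ V → v ∈ C → v = 1 := fun {v} hv hvC => by
    refine hsq (hVQ hv) ?_
    have := hv.2
    rw [← hCt hvC, mul_inv_cancel_right] at this
    rw [sq]; nth_rewrite 1 [this]; rw [inv_mul_cancel]
  have hQsplit : ∀ u ∈ Q, ∃ v ∈ V, ∃ e ∈ E, v * e = u := by
    intro u hu
    have hw : ⁅u, t⁆ ∈ V := ⟨hcomm u hu t, by
      calc t * ⁅u, t⁆ * t⁻¹ = t * u * t * u⁻¹ * (t * t)⁻¹ := by simp only [commutatorElement_def]; group
        _ = t * u * t⁻¹ * u⁻¹ := by rw [ht2, htinv]; group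
        _ = ⁅u, t⁆⁻¹ := by simp only [commutatorElement_def]; group⟩
    set v := ⁅u, t⁆ ^ (j + 1)
    have hv : v ∈ V := pow_mem hw _
    refine ⟨v, hv, v⁻¹ * u, ⟨Q.mul_mem (Q.inv_mem (hVQ hv)) hu, hCmem ?_⟩, mul_inv_cancel_left v u⟩
    have hv2 : v * v = ⁅u, t⁆ := by rw [← sq]; exact hhalf (hVQ hw)
    calc t * (v⁻¹ * u) * t⁻¹ = (t * v * t⁻¹)⁻¹ * (t * u * t⁻¹) := by group
      _ = v * ((v * v)⁻¹ * u) := by rw [hv.2, inv_inv, hv2]; simp only [commutatorElement_def]; group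
      _ = v⁻¹ * u := by group
  -- `E` is central
  have hEc : ∀ e ∈ E, ∀ g : G, Commute e g := by
    intro e he
    have hval : ∀ g, ⁅e, g⁆ ∈ Z ⊓ centralizer ((⊤ : Subgroup G) : Set G) := fun g => by
      have hz := hcomm e he.1 g
      refine (hn.map_eq_zero _ hz).1 ?_
      have hfix : t * ⁅e, g⁆ * t⁻¹ = ⁅e, g⁆ := by
        have het : t * e * t⁻¹ = e := by rw [← hCt he.2, mul_inv_cancel_right]
        calc t * ⁅e, g⁆ * t⁻¹ = ⁅t * e * t⁻¹, ⁅t, g⁆ * g⁆ := by simp only [commutatorElement_def]; group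
          _ = ⁅e, ⁅t, g⁆⁆ * (⁅t, g⁆ * ⁅e, g⁆ * ⁅t, g⁆⁻¹) := by rw [het]; simp only [commutatorElement_def]; group
          _ = ⁅e, g⁆ := by
            rw [commutatorElement_eq_one_iff_commute.2 (hQc he.1 (htg g)), one_mul,
              ← (hzc hz (htg g)).eq, mul_inv_cancel_right]
      have h1 := hn.equiv t _ hz
      rw [hfix, hscal] at h1
      ext i
      have h2 := congrFun h1 i
      have : (2 : F) * θ ⁅e, g⁆ i = 0 := by simp only [Pi.neg_apply] at h2; linear_combination h2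
      exact (mul_eq_zero.1 this).resolve_left h2F
    have hcz : ∀ g k, k * ⁅e, g⁆ = ⁅e, g⁆ * k := fun g k => mem_centralizer_iff.1 (hval g).2 k (mem_top k)
    let φ : G →* G :=
      { toFun := fun g => ⁅e, g⁆
        map_one' := commutatorElement_one_right e
        map_mul' := fun g k => by
          rw [show ⁅e, g * k⁆ = ⁅e, g⁆ * (g * ⁅e, k⁆ * g⁻¹) by simp only [commutatorElement_def]; group,
            hcz k g, mul_inv_cancel_right] }
    have hφQ : ∀ {g : G}, g ∈ Q → φ g = 1 := fun hg => commutatorElement_eq_one_iff_commute.2 (hQc he.1 hg)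
    have hφc : ∀ a b : G, φ ⁅a, b⁆ = 1 := fun a b => by
      rw [map_commutatorElement, commutatorElement_eq_one_iff_commute]
      exact hcz b (φ a)
    have hρφ : ∀ {a b : G}, ρ a = ρ b → φ a = φ b := fun {a b} hab => by
      have hq : a⁻¹ * b ∈ Q := by rw [← hk, MonoidHom.mem_ker, map_mul, map_inv, hab, inv_mul_cancel]
      rw [show b = a * (a⁻¹ * b) by group, map_mul, hφQ hq, mul_one]
    have hxu : ∀ x g, ρ g = xu x → φ g = 1 := fun x g hg => by
      obtain ⟨u, b, hub⟩ := xu_commutator hp5 x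
      obtain ⟨g1, h1⟩ := hn.surj (hh u)
      obtain ⟨g2, h2⟩ := hn.surj (xu b)
      rw [hρφ (show ρ g = ρ ⁅g1, g2⁆ by rw [map_commutatorElement, h1, h2, hub, hg]), hφc]
    have key : ∀ m g, ρ g = m → φ g = 1 := fun m => by
      refine sl_induction (fun m => ∀ g, ρ g = m → φ g = 1) hxu (fun x g hg => ?_) (fun a b iha ihb g hg => ?_) m
      · obtain ⟨w, hw⟩ := hn.surj ww
        have h1 := hxu (-x) (w * g * w⁻¹) (by rw [map_mul, map_mul, map_inv, hw, hg, ww_yl, mul_inv_cancel_right])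
        rw [map_mul, map_mul, map_inv] at h1
        exact (mul_eq_left (a := φ w)).1 (mul_inv_eq_one.1 h1)
      · obtain ⟨g1, h1⟩ := hn.surj a
        obtain ⟨g2, h2⟩ := hn.surj b
        rw [hρφ (show ρ g = ρ (g1 * g2) by rw [map_mul, h1, h2, hg]), map_mul, iha g1 h1, ihb g2 h2, one_mul]
    exact fun g => commutatorElement_eq_one_iff_commute.1 (key (ρ g) g rfl)
  -- `G = V C`
  have hGsplit : ∀ g : G, ∃ v ∈ V, ∃ x ∈ C, v * x = g := by
    intro g
    have hk' : ⁅g, t⁆ ∈ Q := by rw [← commutatorElement_inv]; exact Q.inv_mem (htg g)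
    obtain ⟨v, hv, e, he, hve⟩ := hQsplit _ hk'
    have hgt : g * t * g⁻¹ = v * e * t := by rw [hve]; simp only [commutatorElement_def]; group
    have het : Commute e t := hEc e he t
    have he1 : e = 1 := by
      refine hsq he.1 ?_
      have h1 : (v * e * t) * (v * e * t) = 1 := by
        rw [← hgt, show g * t * g⁻¹ * (g * t * g⁻¹) = g * (t * t) * g⁻¹ by group, ht2]; group
      calc e ^ 2 = v * (t * v * t⁻¹) * (e * e) := by rw [hv.2, mul_inv_cancel, one_mul, sq]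
        _ = v * (t * v * t⁻¹) * (e * e) * (t * t) := by rw [ht2, mul_one]
        _ = v * e * t * (v * e * t) := by
          have c1 : Commute e (t * v * t⁻¹) := hEc e he _
          rw [mul_assoc v (t * v * t⁻¹) (e * e), ← mul_assoc (t * v * t⁻¹) e e, ← c1.eq]
          calc v * (e * (t * v * t⁻¹) * e) * (t * t) = v * e * t * v * (t⁻¹ * e * t) * t := by group
            _ = v * e * t * v * (t⁻¹ * t * e) * t := by rw [mul_assoc t⁻¹ e t, het.eq, mul_assoc t⁻¹ t e]
            _ = v * e * t * (v * e * t) := by group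
        _ = 1 := h1
    rw [he1, mul_one] at hgt
    set w := v ^ (j + 1) with hw
    have hwV : w ∈ V := pow_mem hv _
    have hw2 : w * w = v := by rw [← sq]; exact hhalf (hVQ hv)
    refine ⟨w, hwV, w⁻¹ * g, hCmem ?_, mul_inv_cancel_left w g⟩
    calc t * (w⁻¹ * g) * t⁻¹ = (t * w * t⁻¹)⁻¹ * t * g * t⁻¹ := by group
      _ = w * t * g * t⁻¹ := by rw [hwV.2, inv_inv]
      _ = w⁻¹ * ((w * w) * t) * g * t⁻¹ := by group
      _ = w⁻¹ * (g * t * g⁻¹) * g * t⁻¹ := by rw [hw2, hgt]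
      _ = w⁻¹ * g := by group
  have hCsurj : ∀ m, ∃ x ∈ C, ρ x = m := fun m => by
    obtain ⟨g, rfl⟩ := hn.surj m
    obtain ⟨v, hv, x, hx, rfl⟩ := hGsplit g
    exact ⟨x, hx, by rw [map_mul, MonoidHom.mem_ker.1 (hk.ge (hVQ hv)), one_mul]⟩
  have hCE : ∀ {x : G}, x ∈ C → ρ x = 1 → x ∈ E := fun hx h1 => ⟨hk.le h1, hx⟩
  -- the Sylow subgroup of `C` is abelian
  have hSC : ∀ s ∈ (S : Subgroup G) ⊓ C, ∀ s' ∈ (S : Subgroup G) ⊓ C, s * s' = s' * s := by
    have hn' : Y ≤ normalizer (Q : Set G) := le_normalizer_of_normal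
    let π := QuotientGroup.mk' V
    have hπ : ∀ s ∈ (S : Subgroup G), ∃ y ∈ Y, ∃ e ∈ E, π s = π (y * e) := fun s hs => by
      rw [← hYQ, ← SetLike.mem_coe, coe_mul_of_left_le_normalizer_right _ _ hn'] at hs
      obtain ⟨y, hy, w, hw, rfl⟩ := hs
      obtain ⟨v, hv, e, he, rfl⟩ := hQsplit w hw
      refine ⟨y, hy, e, he, ?_⟩
      simp only [π, map_mul]
      rw [show QuotientGroup.mk' V v = 1 from (QuotientGroup.eq_one_iff v).2 hv, one_mul]
    rintro s ⟨hs, hsC⟩ s' ⟨hs', hsC'⟩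
    rw [← commutatorElement_eq_one_iff_mul_comm]
    refine hVC ?_ (by rw [commutatorElement_def]; exact mul_mem (mul_mem (mul_mem hsC hsC') (inv_mem hsC)) (inv_mem hsC'))
    obtain ⟨y, hy, e, he, hse⟩ := hπ s hs
    obtain ⟨y', hy', e', he', hse'⟩ := hπ s' hs'
    refine (QuotientGroup.eq_one_iff _).1 ?_
    show π ⁅s, s'⁆ = 1
    rw [map_commutatorElement, hse, hse', ← map_commutatorElement,
      commutatorElement_eq_one_iff_commute.2 ?_, map_one]
    exact ((show Commute y y' from hYab y hy y' hy').mul_right (hEc e' he' y).symm).mul_left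
      ((hEc e he y').mul_right (hEc e he e'))
  set P := ((S : Subgroup G) ⊓ C).subgroupOf C with hP
  have hPidx : ¬ p ∣ P.index := by
    have h1 : P.index = ((S : Subgroup G) ⊓ C).relIndex C := rfl
    rw [h1, inf_relIndex_right]
    intro hd
    have htop : (S : Subgroup G).relIndex C ∣ (S : Subgroup G).index := by
      have hVS : V ≤ (S : Subgroup G) := fun v hv => hQS (hVQ hv)
      have e : (S : Subgroup G).relIndex C = (S : Subgroup G).index := by
        rw [relIndex, index]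
        refine Nat.card_congr (Equiv.ofBijective
          (Quotient.map' Subtype.val fun a b hab => by
            rw [QuotientGroup.leftRel_apply] at hab ⊢
            exact hab) ⟨?_, ?_⟩)
        · rintro ⟨a⟩ ⟨b⟩ hab
          refine Quotient.sound' ?_
          rw [QuotientGroup.leftRel_apply]
          have h' : (((a : G)) : G ⧸ (S : Subgroup G)) = ((b : G) : G ⧸ (S : Subgroup G)) := hab
          show ((a⁻¹ * b : C) : G) ∈ (S : Subgroup G)
          exact QuotientGroup.eq.1 h'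
        · rintro ⟨g⟩
          obtain ⟨v, hv, x, hx, rfl⟩ := hGsplit g
          refine ⟨Quotient.mk'' ⟨x, hx⟩, Quotient.sound' ?_⟩
          rw [QuotientGroup.leftRel_apply]
          show x⁻¹ * (v * x) ∈ (S : Subgroup G)
          have := hVS (hVn.conj_mem _ hv x⁻¹)
          simpa [mul_assoc] using this
      rw [e]
    exact S.not_dvd_index (hd.trans htop)
  letI : CommGroup P := { (inferInstance : Group P) with
    mul_comm := fun a b => Subtype.ext (Subtype.ext (hSC _ a.2 _ b.2)) }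
  set L := ⁅C, C⁆
  have hLC : L ≤ C := commutator_le.2 fun a ha b hb => by
    rw [commutatorElement_def]; exact mul_mem (mul_mem (mul_mem ha hb) (inv_mem ha)) (inv_mem hb)
  have hLE : ∀ {x : G}, x ∈ L → x ∈ E → x = 1 := by
    intro x hxL hxE
    haveI : P.FiniteIndex := inferInstance
    let τ := MonoidHom.transfer (MonoidHom.id P)
    have h1 : τ ⟨x, hxE.2⟩ = 1 := by
      have hle : (⁅(⊤ : Subgroup C), (⊤ : Subgroup C)⁆) ≤ τ.ker := commutator_le.2 fun a _ b _ => by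
        rw [MonoidHom.mem_ker, map_commutatorElement, commutatorElement_eq_one_iff_commute]
        exact mul_comm _ _
      refine hle ?_
      have hmap : (⁅(⊤ : Subgroup C), (⊤ : Subgroup C)⁆).map C.subtype = L := by
        rw [map_commutator, ← MonoidHom.range_eq_map, Subgroup.range_subtype]
      obtain ⟨y, hy, hyx⟩ := hmap.ge hxL
      have : y = ⟨x, hxE.2⟩ := Subtype.ext hyx
      exact this ▸ hy
    rw [MonoidHom.transfer_eq_pow _ _ (fun k g₀ _ => by
      have hc' : Commute ((⟨x, hxE.2⟩ : C) ^ k) g₀ :=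
        (show Commute (⟨x, hxE.2⟩ : C) g₀ from Subtype.ext (hEc x hxE g₀)).pow_left k
      rw [mul_assoc, hc'.eq, inv_mul_cancel_left])] at h1
    have h2 : x ^ P.index = 1 := congrArg (fun z : P => ((z : C) : G)) h1
    have h3 := pow_gcd_eq_one.2 ⟨h2, hQexp hxE.1⟩
    rwa [(Nat.Coprime.symm (hp.coprime_iff_not_dvd.2 hPidx)).gcd_eq_one, pow_one] at h3
  haveI hEn : E.Normal := ⟨fun e he g => by rw [← (hEc e he g).eq, mul_inv_cancel_right]; exact he⟩
  have hCLE : ∀ m x, x ∈ C → ρ x = m → ∃ l ∈ L, ρ l = m := by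
    intro m
    have hxu : ∀ a, ∃ l ∈ L, ρ l = xu a := fun a => by
      obtain ⟨u, b, hub⟩ := xu_commutator hp5 a
      obtain ⟨g1, hg1, h1⟩ := hCsurj (hh u)
      obtain ⟨g2, hg2, h2⟩ := hCsurj (xu b)
      exact ⟨⁅g1, g2⁆, commutator_mem_commutator hg1 hg2, by rw [map_commutatorElement, h1, h2, hub]⟩
    have key : ∀ m, ∃ l ∈ L, ρ l = m := fun m => by
      refine sl_induction (fun m => ∃ l ∈ L, ρ l = m) hxu (fun a => ?_) (fun a b ⟨l, hl, hla⟩ ⟨l', hl', hlb⟩ =>
        ⟨l * l', mul_mem hl hl', by rw [map_mul, hla, hlb]⟩) m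
      obtain ⟨l, hl, hla⟩ := hxu (-a)
      obtain ⟨w, hw, hwm⟩ := hCsurj ww
      refine ⟨w⁻¹ * l * w, ?_, ?_⟩
      · have := (mem_normalizer_iff''.1 ((Subgroup.normalizer_commutator_ge_right C C) hw) l).1 hl
        exact this
      · rw [map_mul, map_mul, map_inv, hla, hwm, mul_assoc, ← ww_yl, inv_mul_cancel_left]
    exact fun x _ _ => key m
  have hLsurj : ∀ m, ∃ l ∈ L, ρ l = m := fun m => by
    obtain ⟨x, hx, hxm⟩ := hCsurj m; exact hCLE m x hx hxm
  have hLinj : ∀ {l : G}, l ∈ L → ρ l = 1 → l = 1 := fun hl h1 => hLE hl (hCE (hLC hl) h1)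
  set G₀ := V ⊔ L
  have hdec : ∀ g ∈ G₀, ∃ v ∈ V, ∃ l ∈ L, v * l = g := fun g hg => by
    rw [← SetLike.mem_coe, coe_mul_of_right_le_normalizer_left V L le_normalizer_of_normal] at hg
    exact hg
  refine ⟨G₀, E, fun a _ b hb => ((hEc b hb a).eq).symm, ?_, ?_, ?_, ?_⟩
  · rw [eq_bot_iff]
    rintro g ⟨hg, hgE⟩
    obtain ⟨v, hv, l, hl, rfl⟩ := hdec g hg
    have hl1 : l = 1 := hLinj hl (by
      have := MonoidHom.mem_ker.1 (hk.ge hgE.1)
      rwa [map_mul, MonoidHom.mem_ker.1 (hk.ge (hVQ hv)), one_mul] at this)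
    rw [hl1, mul_one] at hgE ⊢
    rw [mem_bot]; exact hVC hv hgE.2
  · rw [eq_top_iff]
    intro g _
    obtain ⟨v, hv, x, hx, rfl⟩ := hGsplit g
    obtain ⟨l, hl, hlm⟩ := hLsurj (ρ x)
    have he : l⁻¹ * x ∈ E := hCE (mul_mem (inv_mem (hLC hl)) hx) (by rw [map_mul, map_inv, hlm, inv_mul_cancel])
    rw [show v * x = v * l * (l⁻¹ * x) by group]
    exact mul_mem (mem_sup_left (mul_mem (mem_sup_left hv) (mem_sup_right hl))) (mem_sup_right he)
  · exact ⟨⟨⟨fun a b => Subtype.ext (hQc a.2.1 b.2.1).eq⟩⟩, fun x hx => hQexp hx.1⟩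
  -- the matrices
  let τ : G₀ → Fin 2 → F := fun g => θ (Classical.choose (hdec g g.2))
  have hτ : ∀ (g : G₀) v l, v ∈ V → l ∈ L → v * l = (g : G) → τ g = θ v ∧ ρ g = ρ l := by
    intro g v l hv hl hvl
    obtain ⟨hv', l', hl', hvl'⟩ := Classical.choose_spec (hdec g g.2)
    set v' := Classical.choose (hdec g g.2)
    have hll : l = l' := by
      have h1 : ρ l = ρ l' := by
        have := congrArg ρ (hvl.trans hvl'.symm)
        rwa [map_mul, map_mul, MonoidHom.mem_ker.1 (hk.ge (hVQ hv)), MonoidHom.mem_ker.1 (hk.ge (hVQ hv')),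
          one_mul, one_mul] at this
      exact inv_mul_eq_one.1 (hLinj (mul_mem (inv_mem hl) hl') (by rw [map_mul, map_inv, h1, inv_mul_cancel]))
    refine ⟨?_, by rw [← hvl, map_mul, MonoidHom.mem_ker.1 (hk.ge (hVQ hv)), one_mul]⟩
    show θ v' = θ v
    rw [← hll] at hvl'
    rw [mul_right_cancel (hvl'.trans hvl.symm)]
  have hτmul : ∀ g g' : G₀, τ (g * g') = τ g + (ρ g).1.mulVec (τ g') := by
    intro g g'
    obtain ⟨v, hv, l, hl, hvl⟩ := hdec g g.2
    obtain ⟨v', hv', l', hl', hvl'⟩ := hdec g' g'.2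
    obtain ⟨a1, a2⟩ := hτ g v l hv hl hvl
    obtain ⟨b1, -⟩ := hτ g' v' l' hv' hl' hvl'
    have hconj := hVn.conj_mem _ hv' l
    rw [(hτ (g * g') (v * (l * v' * l⁻¹)) (l * l') (mul_mem hv hconj) (mul_mem hl hl')
      (by push_cast; rw [← hvl, ← hvl']; group)).1, hn.map_mul _ hv.1 _ hconj.1, hn.equiv l v' hv'.1, a1, b1, a2]
  let mat : Matrix.SpecialLinearGroup (Fin 2) F → (Fin 2 → F) → Matrix (Fin 3) (Fin 3) F := fun m v =>
    !![m.1 0 0, m.1 0 1, v 0; m.1 1 0, m.1 1 1, v 1; 0, 0, 1]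
  have hdet : ∀ m v, (mat m v).det = 1 := fun m v => by
    have := m.2
    rw [Matrix.det_fin_two] at this
    simp [mat, Matrix.det_fin_three]
    linear_combination this
  let M3 : Matrix.SpecialLinearGroup (Fin 2) F → (Fin 2 → F) → Matrix.SpecialLinearGroup (Fin 3) F :=
    fun m v => ⟨mat m v, hdet m v⟩
  let Φ : G₀ →* Matrix.SpecialLinearGroup (Fin 3) F := MonoidHom.mk' (fun g => M3 (ρ g) (τ g))
    fun g g' => by
      apply Subtype.ext
      rw [Matrix.SpecialLinearGroup.coe_mul]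
      show mat (ρ ((g : G) * (g' : G))) (τ (g * g')) = mat (ρ g) (τ g) * mat (ρ g') (τ g')
      rw [map_mul, hτmul]
      ext i k
      fin_cases i <;> fin_cases k <;>
        simp [mat, Matrix.mul_apply, Fin.sum_univ_two, Fin.sum_univ_three, Matrix.mulVec, dotProduct, Matrix.vecHead, Matrix.vecTail] <;> ring
  have hΦinj : Function.Injective Φ := by
    rw [injective_iff_map_eq_one]
    intro g hg
    obtain ⟨v, hv, l, hl, hvl⟩ := hdec g g.2
    obtain ⟨a1, a2⟩ := hτ g v l hv hl hvl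
    have hm : mat (ρ g) (τ g) = 1 := congrArg Subtype.val hg
    have h1 : ρ g = 1 := by
      apply Subtype.ext
      ext i k
      have e00 := congrFun (congrFun hm 0) 0
      have e01 := congrFun (congrFun hm 0) 1
      have e10 := congrFun (congrFun hm 1) 0
      have e11 := congrFun (congrFun hm 1) 1
      fin_cases i <;> fin_cases k
      · simpa [mat] using e00
      · simpa [mat] using e01
      · simpa [mat] using e10
      · simpa [mat] using e11
    have h2 : τ g = 0 := by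
      ext i
      have e0 := congrFun (congrFun hm 0) 2
      have e1 := congrFun (congrFun hm 1) 2
      fin_cases i
      · simpa [mat] using e0
      · simpa [mat] using e1
    apply Subtype.ext
    rw [← hvl, hθzero hv (a1.symm.trans h2), hLinj hl (a2.symm.trans h1)]
    simp
  have hrange : Φ.range = Cfsg.qdOver F := by
    apply le_antisymm
    · rintro _ ⟨g, rfl⟩
      exact Subgroup.subset_closure ⟨rfl, rfl, rfl⟩
    · refine (Subgroup.closure_le _).2 fun M ⟨h20, h21, h22⟩ => ?_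
      have hd : (M : Matrix (Fin 3) (Fin 3) F) 0 0 * (M : Matrix (Fin 3) (Fin 3) F) 1 1 -
          (M : Matrix (Fin 3) (Fin 3) F) 0 1 * (M : Matrix (Fin 3) (Fin 3) F) 1 0 = 1 := by
        have := M.2
        rw [Matrix.det_fin_three, h20, h21, h22] at this
        linear_combination this
      let m : Matrix.SpecialLinearGroup (Fin 2) F :=
        ⟨!![(M : Matrix (Fin 3) (Fin 3) F) 0 0, (M : Matrix (Fin 3) (Fin 3) F) 0 1;
          (M : Matrix (Fin 3) (Fin 3) F) 1 0, (M : Matrix (Fin 3) (Fin 3) F) 1 1], by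
          rw [Matrix.det_fin_two]; simpa using hd⟩
      obtain ⟨l, hl, hlm⟩ := hLsurj m
      obtain ⟨v, hv, hvw⟩ := hθonto ![(M : Matrix (Fin 3) (Fin 3) F) 0 2, (M : Matrix (Fin 3) (Fin 3) F) 1 2]
      let g : G₀ := ⟨v * l, mul_mem (mem_sup_left hv) (mem_sup_right hl)⟩
      obtain ⟨a1, a2⟩ := hτ g v l hv hl rfl
      refine ⟨g, Subtype.ext ?_⟩
      show mat (ρ g) (τ g) = _
      rw [a1, a2, hvw, hlm]
      ext i k
      fin_cases i <;> fin_cases k <;> simp [mat, m, h20, h21, h22]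
  exact ⟨(MonoidHom.ofInjective hΦinj).trans (MulEquiv.subgroupCongr hrange)⟩

end Cfsg.Agent.H72.Push
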