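import Cfsg.Agent.H72.Push.Final
import Mathlib

/-! The theorems on rank one pushing up. -/

set_option autoImplicit false
set_option linter.style.haveILetI false
set_option linter.unusedSectionVars false

open scoped commutatorElement

namespace Cfsg.Agent.H72.Push

open Cfsg.Agent Subgroup RankOne

variable {G : Type*} [Group G] [Finite G] {p : ℕ} [Fact p.Prime] {S : Sylow p G} {K : Subgroup G} {F : Type}
  [Field F] [Fintype F] {n : ℕ}

theorem setup_of (hE₁ : Subgroup.centralizer (Cfsg.pCore p G : Set G) ≤ Cfsg.pCore p G)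
    (hE₂ : ∃! M : Subgroup G, IsCoatom M ∧ (S : Subgroup G) ≤ M) [K.Normal] (hn : 1 ≤ n)
    (hF : Fintype.card F = p ^ n) (hE₃ : Nonempty (G ⧸ K ≃* Matrix.ProjectiveSpecialLinearGroup (Fin 2) F)) :
    Setup S K F n := by
  obtain ⟨e⟩ := hE₃
  refine ⟨hE₁, hE₂, hF, hn, inferInstance, e.toMonoidHom.comp (QuotientGroup.mk' K),
    e.surjective.comp (QuotientGroup.mk'_surjective K), ?_⟩
  ext x; simp

theorem quotient_iso (ρ : G →* Matrix.SpecialLinearGroup (Fin 2) F) (hs : Function.Surjective ρ)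
    {N : Subgroup G} [N.Normal] (hk : ρ.ker = N) : Nonempty (G ⧸ N ≃* Matrix.SpecialLinearGroup (Fin 2) F) :=
  ⟨(QuotientGroup.quotientMulEquivOfEq hk.symm).trans (QuotientGroup.quotientKerEquivOfSurjective ρ hs)⟩

variable {Z Y U Yh U1 U2 : Subgroup G} {c : G} {ρ : G →* Matrix.SpecialLinearGroup (Fin 2) F} {θ : G → Fin 2 → F}
  {ρ' : G →* Matrix.SpecialLinearGroup (Fin 2) F} {θ' : G → Fin 2 → F}

/-- Every noncentral chief factor inside `O_p(G)` is natural. -/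
theorem natural_chiefs (h : Setup S K F n) (hnc : NoChar (S : Subgroup G)) (hc : CentreFacts S Z (p ^ n))
    (hk : ρ.ker = Cfsg.pCore p G)
    (hn : NatSect (S : Subgroup G) Z (Z ⊓ centralizer ((⊤ : Subgroup G) : Set G))
      (Z ⊓ centralizer ((S : Subgroup G) : Set G)) c ρ θ)
    (hcase : (∃ Y, One S Z Y) ∨ ∃ U Yh U1 U2 Y ρ' θ', TwoShape (F := F) S n Z U Yh U1 U2 Y c ρ' θ')
    {V W : Subgroup G} [W.Normal] (hVQ : V ≤ Cfsg.pCore p G) (hch : Cfsg.IsChiefFactor V W)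
    (hncV : ¬ ⁅V, (⊤ : Subgroup G)⁆ ≤ W) :
    Cfsg.IsNaturalSL2Module F (V.map (QuotientGroup.mk' W)) (⊤ : Subgroup (G ⧸ W)) := by
  haveI := hc.normal
  haveI := hn.normB
  have hWQ : W ≤ Cfsg.pCore p G := hch.1.le.trans hVQ
  have h0 : V ≤ (V ⊓ Cfsg.pCore p G) ⊔ W := le_sup_of_le_left (le_inf le_rfl hVQ)
  have hZ : V ≤ (V ⊓ Z) ⊔ W → Cfsg.IsNaturalSL2Module F (V.map (QuotientGroup.mk' W)) (⊤ : Subgroup (G ⧸ W)) := by
    intro hVZ
    rcases hn.natural_or_below hch hVZ (fun w hw => MonoidHom.mem_ker.1 (hk.ge (hWQ hw))) with h1 | h1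
    · exact h1
    · exfalso
      have h2 := chief_reduce (B := ⊥) hch hncV (k := 1) (by
        show ⁅Z ⊓ centralizer ((⊤ : Subgroup G) : Set G), (⊤ : Subgroup G)⁆ ≤ ⊥
        rw [le_bot_iff, commutator_eq_bot_iff_le_centralizer]; exact inf_le_right) h1
      rw [inf_bot_eq, bot_sup_eq] at h2
      exact hch.1.not_ge h2
  rcases hcase with ⟨Y, h1⟩ | ⟨U, Yh, U1, U2, Y, ρ', θ', ht⟩
  · exact hZ (chief_reduce hch hncV (k := 1) (commutator_le.2 fun x hx g _ => h1.comm_le h hnc hc x hx g) h0)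
  · haveI := ht.nat.normA
    haveI := ht.nat.normB
    rcases ht.nat.natural_or_below hch (chief_reduce hch hncV (ht.iter_le h hnc) h0)
      (fun w hw => MonoidHom.mem_ker.1 (ht.ker.ge (hWQ hw))) with h1 | h1
    · exact h1
    · exact hZ (chief_reduce hch hncV (k := 1) (commutator_le.2 fun x hx g _ => ht.two.comm2 x hx g) h1)

/-- `S` is not abelian. -/
theorem not_abelian (h : Setup S K F n) (hk : ρ.ker = Cfsg.pCore p G) {A B L : Subgroup G}
    (hn : NatSect (S : Subgroup G) A B L c ρ θ) (hA : A ≤ Cfsg.pCore p G) :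
    (S : Subgroup G).lowerCentralSeries 1 ≠ ⊥ := by
  intro hb
  obtain ⟨s, hs, hst⟩ := upper_onto h hn hk.ge 1
  have : ρ s = 1 := (hn.ker s).2 fun a ha => by
    have h1 : ⁅s, a⁆ ∈ (S : Subgroup G).lowerCentralSeries 1 :=
      commutator_mem_commutator hs (H35.pCore_le_sylow S (hA ha))
    rw [hb, mem_bot] at h1
    rw [h1]; exact one_mem _
  rw [hst, ← H75.SL2Natural.xu_zero] at this
  exact one_ne_zero (xu_injective this)

/-- The first alternative. -/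
theorem One.first_case (h1 : One S Z Y) (h : Setup S K F n) (hnc : NoChar (S : Subgroup G))
    (hc : CentreFacts S Z (p ^ n)) (hk : ρ.ker = Cfsg.pCore p G)
    (hn : NatSect (S : Subgroup G) Z (Z ⊓ centralizer ((⊤ : Subgroup G) : Set G))
      (Z ⊓ centralizer ((S : Subgroup G) : Set G)) c ρ θ) :
    (S : Subgroup G).lowerCentralSeries 2 = ⊥ ∧ (S : Subgroup G).lowerCentralSeries 1 ≠ ⊥ ∧
      (p = 2 → Monoid.exponent ↥(S : Subgroup G) = 4) ∧ (p ≠ 2 → Monoid.exponent ↥(S : Subgroup G) = p) ∧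
      (∃ U W : Subgroup G, W ≤ U ∧ U ≤ (Cfsg.pCore p G) ∧ Cfsg.IsChiefFactor U W ∧
        ¬ ⁅U, (⊤ : Subgroup G)⁆ ≤ W ∧ (∃ k : ℕ, Cfsg.iterCommutator W ⊤ k = ⊥) ∧
        (∃ k : ℕ, Cfsg.iterCommutator (Cfsg.pCore p G) ⊤ k ≤ U)) := by
  have hp : p.Prime := Fact.out
  have hna := not_abelian h hk hn hc.le
  have hE := h1.exponent hnc hc
  refine ⟨h1.class_two hnc, hna, fun h2 => ?_, fun h2 => ?_,
    Z, _, inf_le_left, hc.le, hn.chief, hn.noncentral, ⟨1, ?_⟩, ⟨1, ?_⟩⟩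
  · have hd : Monoid.exponent ↥(S : Subgroup G) ∣ 2 ^ 2 :=
      Monoid.exponent_dvd_of_forall_pow_eq_one fun s => Subtype.ext ((hE s s.2).1 h2)
    have hne : ¬ Monoid.exponent ↥(S : Subgroup G) ∣ 2 := fun hh => hna (by
      refine le_bot_iff.1 (commutator_le.2 fun a ha b hb => ?_)
      have hsq : ∀ s : (S : Subgroup G), s * s = 1 := fun s => by
        obtain ⟨j, hj⟩ := hh
        rw [← sq, hj, pow_mul, Monoid.pow_exponent_eq_one, one_pow]
      have hi : ∀ s : (S : Subgroup G), s⁻¹ = s := fun s => inv_eq_of_mul_eq_one_right (hsq s)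
      have hab : (⟨a, ha⟩ : (S : Subgroup G)) * ⟨b, hb⟩ = ⟨b, hb⟩ * ⟨a, ha⟩ := by
        conv_lhs => rw [← hi (⟨a, ha⟩ * ⟨b, hb⟩), mul_inv_rev, hi, hi]
      rw [mem_bot, commutatorElement_eq_one_iff_commute]
      exact congrArg Subtype.val hab)
    obtain ⟨i, hi, he⟩ := (Nat.dvd_prime_pow Nat.prime_two).1 hd
    interval_cases i
    · exact absurd (he ▸ one_dvd 2) hne
    · exact absurd (he ▸ dvd_rfl) hne
    · simpa using he
  · have hd : Monoid.exponent ↥(S : Subgroup G) ∣ p :=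
      Monoid.exponent_dvd_of_forall_pow_eq_one fun s : (S : Subgroup G) => Subtype.ext ((hE s s.2).2 h2)
    rcases hp.eq_one_or_self_of_dvd _ hd with he | he
    · refine absurd (le_bot_iff.1 (commutator_le.2 fun a ha b hb => ?_)) hna
      haveI : Subsingleton (S : Subgroup G) := Monoid.exp_eq_one_iff.1 he
      have ha1 : a = 1 := congrArg Subtype.val (Subsingleton.elim (⟨a, ha⟩ : (S : Subgroup G)) 1)
      simp [ha1]
    · exact he
  · show ⁅Z ⊓ centralizer ((⊤ : Subgroup G) : Set G), (⊤ : Subgroup G)⁆ = ⊥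
    rw [commutator_eq_bot_iff_le_centralizer]; exact inf_le_right
  · exact commutator_le.2 fun x hx g _ => h1.comm_le h hnc hc x hx g

/-- The second alternative. -/
theorem TwoShape.second_case (ht : TwoShape (F := F) S n Z U Yh U1 U2 Y c ρ' θ') (h : Setup S K F n)
    (hnc : NoChar (S : Subgroup G))
    (hn : NatSect (S : Subgroup G) Z (Z ⊓ centralizer ((⊤ : Subgroup G) : Set G))
      (Z ⊓ centralizer ((S : Subgroup G) : Set G)) c ρ θ) :
    p = 3 ∧ (S : Subgroup G).lowerCentralSeries 3 = ⊥ ∧ (S : Subgroup G).lowerCentralSeries 2 ≠ ⊥ ∧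
      Monoid.exponent ↥(S : Subgroup G) = 9 ∧
      (∃ U₁ W₁ U₂ W₂ : Subgroup G, W₁ ≤ U₁ ∧ U₁ ≤ W₂ ∧ W₂ ≤ U₂ ∧ U₂ ≤ (Cfsg.pCore p G) ∧
        Cfsg.IsChiefFactor U₁ W₁ ∧ Cfsg.IsChiefFactor U₂ W₂ ∧ ¬ ⁅U₁, (⊤ : Subgroup G)⁆ ≤ W₁ ∧
        ¬ ⁅U₂, (⊤ : Subgroup G)⁆ ≤ W₂ ∧ (∃ k : ℕ, Cfsg.iterCommutator W₁ ⊤ k = ⊥) ∧
        (∃ k : ℕ, Cfsg.iterCommutator W₂ ⊤ k ≤ U₁) ∧
        (∃ k : ℕ, Cfsg.iterCommutator (Cfsg.pCore p G) ⊤ k ≤ U₂)) := by
  refine ⟨ht.hp3, ht.class_three hnc, fun hb => ?_, ht.exponent_nine hnc,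
    Z, _, U, U2, inf_le_left, ht.two.hZU, ht.nat.hBA, ht.two.hUQ, hn.chief, ht.nat.chief, hn.noncentral,
    ht.nat.noncentral, ⟨1, ?_⟩, ⟨1, commutator_le.2 fun x hx g _ => ht.two.comm2 x hx g⟩, ⟨3, ht.iter_le h hnc⟩⟩
  · obtain ⟨x, hx, y, hy, -, -, hne⟩ := ht.square
    have hxS : x ∈ (S : Subgroup G) := H35.pCore_le_sylow S (ht.two.hUQ hx)
    have h1 : ⁅⁅y, x⁆, y⁆ ∈ (S : Subgroup G).lowerCentralSeries 2 :=
      commutator_mem_commutator (commutator_mem_commutator hy hxS) hy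
    rw [hb, mem_bot] at h1
    apply hne
    rw [← commutatorElement_inv ⁅y, x⁆ y, h1, inv_one]
    exact one_mem _
  · show ⁅Z ⊓ centralizer ((⊤ : Subgroup G) : Set G), (⊤ : Subgroup G)⁆ = ⊥
    rw [commutator_eq_bot_iff_le_centralizer]; exact inf_le_right

end Cfsg.Agent.H72.Push
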